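import Mathlib

/-!
Semisimple elements commuting with a nontrivial unipotent element: their eigenvalue degrees are at most
two less than the dimension.
-/

set_option autoImplicit false

namespace CfsgLib.CommOrderP

variable {F : Type*} [Field F] [Fintype F] {V : Type*} [AddCommGroup V] [Module F V]
  [FiniteDimensional F V]

theorem eq_one_of_pow_eq_one {r k m : ℕ} (hr : r.Prime) (hkm : k ≤ m)
    (hm : ∀ i, 1 ≤ i → i ≤ m → ¬ r ∣ Fintype.card F ^ i - 1) (hq : ¬ r ∣ Fintype.card F)
    (hd : Module.finrank F V = k) (f : Module.End F V) (hf : f ^ r = 1) : f = 1 := by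
  classical
  haveI : Finite V := Module.finite_of_finite F
  let u : (Module.End F V)ˣ := Units.ofPowEqOne f r hf hr.ne_zero
  let e : (Module.End F V)ˣ ≃* GL (Fin k) F :=
    Units.mapEquiv (algEquivMatrix (Module.finBasisOfFinrankEq F V hd)).toMulEquiv
  have hu : u ^ r = 1 := Units.ext hf
  rcases (Nat.dvd_prime hr).1 (orderOf_dvd_of_pow_eq_one hu) with h | h
  · exact congrArg Units.val (orderOf_eq_one_iff.1 h)
  · exfalso
    have h1 : r ∣ Nat.card (GL (Fin k) F) := by
      rw [← Nat.card_congr e.toEquiv, ← h]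
      exact orderOf_dvd_natCard u
    rw [Matrix.card_GL_field] at h1
    obtain ⟨i, -, hi⟩ := (Prime.dvd_finsetProd_iff hr.prime _).1 h1
    have hik : (i : ℕ) < k := i.2
    have e1 : Fintype.card F ^ k - Fintype.card F ^ (i : ℕ)
        = Fintype.card F ^ (i : ℕ) * (Fintype.card F ^ (k - i) - 1) := by
      rw [Nat.mul_sub, mul_one, ← pow_add, Nat.add_sub_cancel' hik.le]
    rw [e1] at hi
    rcases hr.dvd_mul.1 hi with h2 | h2
    · exact hq (hr.dvd_of_dvd_pow h2)
    · exact hm (k - i) (by omega) (by omega) h2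

theorem sub_mem_of_step {r m : ℕ} (hr : r.Prime)
    (hm : ∀ i, 1 ≤ i → i ≤ m → ¬ r ∣ Fintype.card F ^ i - 1) (hq : ¬ r ∣ Fintype.card F)
    (f : Module.End F V) (hf : f ^ r = 1) (U U' : Submodule F V) (hU : ∀ x ∈ U, f x ∈ U)
    (hU' : ∀ x ∈ U', f x ∈ U') (hle : U ≤ U')
    (hdim : Module.finrank F U' ≤ Module.finrank F U + m) : ∀ x ∈ U', f x - x ∈ U := by
  classical
  intro x hx
  set W : Submodule F U' := U.comap U'.subtype with hW
  let g : Module.End F U' := f.restrict hU'
  have hg : W ≤ W.comap g := fun y hy => hU _ hy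
  let h : Module.End F (U' ⧸ W) := W.mapQ W g hg
  have hh : h ^ r = 1 := by
    have key : ∀ j : ℕ, ∀ y : U', (h ^ j) (Submodule.Quotient.mk y) = Submodule.Quotient.mk ((g ^ j) y) := by
      intro j
      induction j with
      | zero => intro y; rfl
      | succ j ih =>
        intro y
        rw [pow_succ, pow_succ, Module.End.mul_apply, Module.End.mul_apply, ← ih (g y)]
        rfl
    have key2 : ∀ j : ℕ, ∀ y : U', (((g ^ j) y : U') : V) = (f ^ j) (y : V) := by
      intro j
      induction j with
      | zero => intro y; rfl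
      | succ j ih =>
        intro y
        rw [pow_succ, pow_succ, Module.End.mul_apply, Module.End.mul_apply, ih (g y)]
        rfl
    refine LinearMap.ext fun z => ?_
    obtain ⟨y, rfl⟩ := Submodule.Quotient.mk_surjective W z
    rw [key]
    refine congrArg Submodule.Quotient.mk (Subtype.ext ?_)
    rw [key2, hf]; rfl
  have hd : Module.finrank F (U' ⧸ W) ≤ m := by
    have h1 := Submodule.finrank_quotient_add_finrank W
    have h2 : Module.finrank F W = Module.finrank F U :=
      (Submodule.comapSubtypeEquivOfLe hle).finrank_eq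
    omega
  have h1 := LinearMap.congr_fun (eq_one_of_pow_eq_one hr hd hm hq rfl h hh)
    (Submodule.Quotient.mk (⟨x, hx⟩ : U'))
  exact (Submodule.Quotient.eq W).1 h1

/-- An element of order `r` commuting with a nontrivial unipotent element is trivial if `r` is prime to
`q ^ i - 1` for all `i ≤ n - 2`. -/
theorem eq_one_of_commute {p r : ℕ} [Fact p.Prime] [CharP F p] (hr : r.Prime) (hrp : r ≠ p)
    (hn : 3 ≤ Module.finrank F V)
    (hm : ∀ i, 1 ≤ i → i ≤ Module.finrank F V - 2 → ¬ r ∣ Fintype.card F ^ i - 1)
    (f N : Module.End F V) (hf : f ^ r = 1) (hN : IsNilpotent N) (hN0 : N ≠ 0) (hc : Commute f N) :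
    f = 1 := by
  classical
  set n := Module.finrank F V with hndef
  have hq : ¬ r ∣ Fintype.card F := by
    intro h
    obtain ⟨a, ha⟩ := FiniteField.card F p
    rw [ha.2] at h
    exact hrp ((Nat.prime_dvd_prime_iff_eq hr Fact.out).1 (hr.dvd_of_dvd_pow h))
  have hcomm : ∀ x, f (N x) = N (f x) := fun x => LinearMap.congr_fun hc.eq x
  set W := LinearMap.ker N with hW
  set I := LinearMap.range N with hI
  have hfW : ∀ x ∈ W, f x ∈ W := fun x hx => by
    rw [hW, LinearMap.mem_ker] at hx ⊢; rw [← hcomm, hx, map_zero]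
  have hfI : ∀ x ∈ I, f x ∈ I := by
    rintro _ ⟨y, rfl⟩; exact ⟨f y, (hcomm y).symm⟩
  have hsum := LinearMap.finrank_range_add_finrank_ker N
  rw [← hI, ← hW, ← hndef] at hsum
  have hW0 : W ≠ ⊥ := by
    intro h
    have hinj : Function.Injective N := LinearMap.ker_eq_bot.1 h
    obtain ⟨k, hk⟩ := hN
    refine hN0 (LinearMap.ext fun x => ?_)
    have h2 : ∀ j, Function.Injective ((N ^ j : Module.End F V) : V → V) := fun j => by
      rw [Module.End.coe_pow]; exact hinj.iterate j
    have := h2 k (show (N ^ k) x = (N ^ k) 0 by rw [hk]; rfl)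
    rw [this, map_zero, LinearMap.zero_apply]
  have hWt : W ≠ ⊤ := fun h => hN0 (LinearMap.ker_eq_top.1 h)
  have hWpos : 1 ≤ Module.finrank F W := by
    rw [Nat.one_le_iff_ne_zero, Ne, Submodule.finrank_eq_zero]; exact hW0
  have hWlt : Module.finrank F W < n := Submodule.finrank_lt hWt
  obtain ⟨U₁, U₂, h12, hf1, hf2, d1, d2, d3⟩ : ∃ U₁ U₂ : Submodule F V, U₁ ≤ U₂ ∧ (∀ x ∈ U₁, f x ∈ U₁) ∧
      (∀ x ∈ U₂, f x ∈ U₂) ∧ Module.finrank F U₁ ≤ n - 2 ∧ Module.finrank F U₂ ≤ Module.finrank F U₁ + (n - 2) ∧
      n ≤ Module.finrank F U₂ + (n - 2) := by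
    by_cases hbig : Module.finrank F W = n - 1
    · have hIW : I ≤ W := by
        by_contra hne
        have hd : I ⊓ W = ⊥ := by
          rw [← Submodule.finrank_eq_zero (R := F)]
          have h1 : I ⊓ W < I := lt_of_le_of_ne inf_le_left fun e => hne (e ▸ inf_le_right)
          have := Submodule.finrank_lt_finrank_of_lt h1
          omega
        obtain ⟨k, hk⟩ := hN
        have hinj : ∀ j : ℕ, ∀ x, (N ^ (j + 1)) x = 0 → N x = 0 := by
          intro j
          induction j with
          | zero => intro x hx; simpa using hx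
          | succ j ih =>
            intro x hx
            rw [pow_succ, Module.End.mul_apply] at hx
            have h3 : N x ∈ I ⊓ W := ⟨⟨x, rfl⟩, LinearMap.mem_ker.2 (ih _ hx)⟩
            rwa [hd, Submodule.mem_bot] at h3
        refine hN0 (LinearMap.ext fun x => hinj k x ?_)
        rw [pow_succ', Module.End.mul_apply, hk, LinearMap.zero_apply, map_zero]
      exact ⟨I, W, hIW, hfI, hfW, by omega, by omega, by omega⟩
    · by_cases hone : Module.finrank F W = 1
      · set W₂ := LinearMap.ker (N * N) with hW₂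
        have hfW₂ : ∀ x ∈ W₂, f x ∈ W₂ := fun x hx => by
          rw [hW₂, LinearMap.mem_ker, Module.End.mul_apply] at hx ⊢
          rw [← hcomm, ← hcomm, hx, map_zero]
        have hle : W ≤ W₂ := fun x hx => by
          rw [hW, LinearMap.mem_ker] at hx
          rw [hW₂, LinearMap.mem_ker, Module.End.mul_apply, hx, map_zero]
        let g : W₂ →ₗ[F] W := N.restrict (p := W₂) (q := W) fun x hx => by
          rw [hW, LinearMap.mem_ker]; rw [hW₂, LinearMap.mem_ker, Module.End.mul_apply] at hx; exact hx
        have hg1 := LinearMap.finrank_range_add_finrank_ker g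
        have hg2 : Module.finrank F (LinearMap.range g) ≤ 1 := hone ▸ Submodule.finrank_le _
        have hg3 : LinearMap.ker g = W.comap W₂.subtype := by
          ext x
          simp only [LinearMap.mem_ker, Submodule.mem_comap, hW, Submodule.coe_subtype]
          exact ⟨fun h => congrArg Subtype.val h, fun h => Subtype.ext h⟩
        rw [hg3, (Submodule.comapSubtypeEquivOfLe hle).finrank_eq, hone] at hg1
        have hlt : W < W₂ := by
          refine lt_of_le_of_ne hle fun e => ?_
          have hd : I ⊓ W = ⊥ := by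
            rw [eq_bot_iff]
            rintro _ ⟨⟨y, rfl⟩, hy⟩
            rw [SetLike.mem_coe, hW, LinearMap.mem_ker] at hy
            have : y ∈ W₂ := by rw [hW₂, LinearMap.mem_ker, Module.End.mul_apply]; exact hy
            rw [← e, hW, LinearMap.mem_ker] at this
            rw [this]; exact Submodule.zero_mem _
          obtain ⟨k, hk⟩ := hN
          have hinj : ∀ j : ℕ, ∀ x, (N ^ (j + 1)) x = 0 → N x = 0 := by
            intro j
            induction j with
            | zero => intro x hx; simpa using hx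
            | succ j ih =>
              intro x hx
              rw [pow_succ, Module.End.mul_apply] at hx
              have h3 : N x ∈ I ⊓ W := ⟨⟨x, rfl⟩, LinearMap.mem_ker.2 (ih _ hx)⟩
              rwa [hd, Submodule.mem_bot] at h3
          refine hN0 (LinearMap.ext fun x => hinj k x ?_)
          rw [pow_succ', Module.End.mul_apply, hk, LinearMap.zero_apply, map_zero]
        have := Submodule.finrank_lt_finrank_of_lt hlt
        exact ⟨W, W₂, hle, hfW, hfW₂, by omega, by omega, by omega⟩
      · exact ⟨⊥, W, bot_le, fun x hx => by rw [Submodule.mem_bot] at hx; simp [hx], hfW,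
          by rw [finrank_bot]; omega, by rw [finrank_bot]; omega, by omega⟩
  have s1 := sub_mem_of_step hr hm hq f hf ⊥ U₁ (fun x hx => by rw [Submodule.mem_bot] at hx; simp [hx]) hf1
    bot_le (by rw [finrank_bot]; omega)
  have s2 := sub_mem_of_step hr hm hq f hf U₁ U₂ hf1 hf2 h12 d2
  have s3 := sub_mem_of_step hr hm hq f hf U₂ ⊤ hf2 (fun x _ => Submodule.mem_top) le_top
    (by rw [finrank_top]; omega)
  have h3 : (f - 1) ^ 3 = 0 := by
    refine LinearMap.ext fun x => ?_
    simp only [pow_succ, pow_zero, one_mul, Module.End.mul_apply, LinearMap.zero_apply]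
    show f (f (f x - x) - (f x - x)) - (f (f x - x) - (f x - x)) = 0
    have := s1 _ (s2 _ (s3 x Submodule.mem_top))
    rwa [Submodule.mem_bot] at this
  haveI : Nontrivial V := Module.nontrivial_of_finrank_pos (R := F) (by omega)
  haveI : CharP (Module.End F V) p :=
    charP_of_injective_algebraMap (FaithfulSMul.algebraMap_injective F (Module.End F V)) p
  have hp2 : 2 ≤ p := (Fact.out : p.Prime).two_le
  have h4 : f ^ p ^ 2 = 1 := by
    rw [← sub_eq_zero]
    have h5 := sub_pow_char_pow_of_commute (p := p) (n := 2) (Commute.one_right f)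
    rw [one_pow] at h5
    rw [← h5]
    exact pow_eq_zero_of_le (by nlinarith) h3
  have hcop : (p ^ 2).Coprime r := Nat.Coprime.pow_left _ ((Nat.coprime_primes Fact.out hr).2 (Ne.symm hrp))
  have := pow_gcd_eq_one.2 ⟨h4, hf⟩
  rwa [hcop, pow_one] at this

end CfsgLib.CommOrderP
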